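import Cfsg.Agent.Cam.Cl.Base
import Cfsg.Agent.DS.Cl.P5
import Cfsg.Agent.DS.Cl.ModL
import Cfsg.Agent.H352.Order120
import Cfsg.Agent.LieClassical.SLGen
import Cfsg.Agent.LieClassical.OrthFourPlus

/-!
# The box QS: group tools, `SL₂`, and `O₄⁺` (helper8)
-/

set_option autoImplicit false

namespace Cfsg.Agent.Cam.Cl.Sm

open Cfsg Cfsg.Agent.DS.Cl Cfsg.Agent.LieClassical Module
open scoped commutatorElement MatrixGroups

section grp

variable {G G' : Type} [Group G] [Group G']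

theorem qs_of_simple (hp : commutator G = ⊤) (hs : IsSimpleGroup (G ⧸ Subgroup.center G)) : QS (⊤ : Subgroup G) := by
  refine ⟨hp.ge, fun hc => ?_, fun N _ hN => ?_⟩
  · obtain ⟨x, hx⟩ := exists_ne (1 : G ⧸ Subgroup.center G)
    obtain ⟨g, rfl⟩ := QuotientGroup.mk_surjective x
    exact hx ((QuotientGroup.eq_one_iff g).2 (Subgroup.mem_center_iff.2 fun a => hc a trivial g trivial))
  · have hn : N.Normal := ⟨fun n hn g => hN g trivial n hn⟩
    rcases (hn.map _ (QuotientGroup.mk'_surjective (Subgroup.center G))).eq_bot_or_eq_top with h | h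
    · right
      intro n hn t _
      have h1 : QuotientGroup.mk' (Subgroup.center G) n ∈ N.map (QuotientGroup.mk' _) := ⟨n, hn, rfl⟩
      rw [h, Subgroup.mem_bot, QuotientGroup.mk'_apply, QuotientGroup.eq_one_iff] at h1
      exact (Subgroup.mem_center_iff.1 h1 t).symm
    · left
      rw [eq_top_iff, ← hp, commutator_def, Subgroup.commutator_le]
      intro a _ b _
      obtain ⟨n, hn', h1⟩ : QuotientGroup.mk' (Subgroup.center G) a ∈ N.map (QuotientGroup.mk' _) := by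
        rw [h]; trivial
      obtain ⟨z, hz, rfl⟩ := (QuotientGroup.mk'_eq_mk' _).1 h1
      have h2 := mul_mem hn' (hn.conj_mem _ (inv_mem hn') b)
      rwa [show ⁅n * z, b⁆ = n * (z * b) * z⁻¹ * n⁻¹ * b⁻¹ by rw [commutatorElement_def]; group,
        ← Subgroup.mem_center_iff.1 hz b, show n * (b * z) * z⁻¹ * n⁻¹ * b⁻¹ = n * (b * n⁻¹ * b⁻¹) by group]

theorem qs_range (h : QS (⊤ : Subgroup G)) (φ : G →* G') (hne : φ.range ≠ ⊥) : QS φ.range := by
  rw [MonoidHom.range_eq_map]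
  rcases h.dich φ.ker le_top (fun s _ t ht => φ.normal_ker.conj_mem t ht s) with h1 | h1
  · exact absurd (by rw [MonoidHom.range_eq_map, ← h1, Subgroup.map_eq_bot_iff]) hne
  · exact h.map φ fun t _ ht s hs => h1 t ht s hs

theorem solv_of_le (φ : G →* G') (h : Group.IsSolvable G) {T : Subgroup G'} (hT : T ≤ φ.range) : Group.IsSolvable T :=
  have := Group.isSolvable_of_surjective φ.rangeRestrict_surjective
  Group.isSolvable_of_isSolvable_injective (Subgroup.inclusion_injective hT)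

variable {K : Type} [Field K] [Fintype K]

theorem qs_sl2 (h : 4 ≤ Fintype.card K) : QS (⊤ : Subgroup SL(2, K)) := by
  obtain ⟨a, ha, ha'⟩ := Vec.exists_sq_ne h
  have h1 := Matrix.SL2.commutator_eq_top ha ha'
  exact qs_of_simple h1 (SLGen.psl_isSimpleGroup_of_perfect h1)

theorem solv_sl2 (h : ¬ 4 ≤ Fintype.card K) : Group.IsSolvable SL(2, K) := by
  have h0 := Cfsg.Agent.S0242.result (F := K) rfl 2 (by norm_num)
  refine H352.Order120.solvable_of_card_lt _ _ rfl ?_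
  rcases Vec.card_cases K with h1 | h1 | h1
  · rw [h1] at h0
    simp at h0
    omega
  · rw [h1] at h0
    simp at h0
    omega
  · exact absurd h1 h

end grp

section piece

variable {A K : Type} [Ring A] [Field K]

/-- the image of `SL₂` -/
def slU (ρ : Matrix (Fin 2) (Fin 2) K →+* A) : SL(2, K) →* Aˣ :=
  (Units.map (ρ : Matrix (Fin 2) (Fin 2) K →* A)).comp Matrix.SpecialLinearGroup.toGL

theorem slU_val (ρ : Matrix (Fin 2) (Fin 2) K →+* A) (s : SL(2, K)) : (slU ρ s : A) = ρ s.1 := rfl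

theorem slU_sub (ρ : Matrix (Fin 2) (Fin 2) K →+* A) {i j : Fin 2} (hij : i ≠ j) (c : K) :
    (slU ρ (Matrix.SpecialLinearGroup.transvection hij c) : A) - 1 = ρ (Matrix.single i j c) := by
  rw [slU_val, Matrix.SpecialLinearGroup.transvection_coe, map_add, map_one, add_sub_cancel_left]

theorem tyI_slU (ρ : Matrix (Fin 2) (Fin 2) K →+* A) : TyI (slU ρ).range := by
  rintro _ ⟨s, rfl⟩ _ ⟨t, rfl⟩
  have h1 : t.1 + (t⁻¹).1 = t.1.trace • (1 : Matrix (Fin 2) (Fin 2) K) := by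
    rw [Matrix.SpecialLinearGroup.coe_inv, Matrix.adjugate_fin_two, Matrix.trace_fin_two]
    ext i j
    fin_cases i <;> fin_cases j <;> simp [add_comm]
  rw [← map_inv, slU_val, slU_val, slU_val, ← map_add, ← map_mul, ← map_mul, h1, Matrix.mul_smul, Matrix.smul_mul,
    mul_one, one_mul]

theorem hasUni_slU [Nontrivial A] (ρ : Matrix (Fin 2) (Fin 2) K →+* A) : HasUni (slU ρ).range := by
  refine ⟨_, ⟨Matrix.SpecialLinearGroup.transvection (i := 0) (j := 1) zero_ne_one 1, rfl⟩, fun h => ?_, 2, ?_⟩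
  · have h1 := slU_sub ρ (i := 0) (j := 1) zero_ne_one 1
    rw [h, Units.val_one, sub_self, ← map_zero ρ] at h1
    simpa using congrFun (congrFun (ρ.injective h1) 0) 1
  · rw [slU_sub, ← map_pow, pow_two, Matrix.single_mul_single_of_ne _ _ _ _ one_ne_zero, map_zero]

theorem Bd_slU (ρ : Matrix (Fin 2) (Fin 2) K →+* A) (hc : Subring.center A ≤ ρ.range) : Bd (slU ρ).range = ρ.range := by
  refine le_antisymm (Bd_le hc (by rintro _ ⟨s, rfl⟩; exact ⟨_, rfl⟩)) ?_
  rintro _ ⟨a, rfl⟩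
  refine Fwd.mat_ind (fun a => ρ a ∈ Bd (slU ρ).range) (by rw [map_zero]; exact zero_mem _)
    (fun a b ha hb => by rw [map_add]; exact add_mem ha hb) (fun a b ha hb => by rw [map_mul]; exact mul_mem ha hb)
    (fun i j hij c => ?_) a
  rw [← slU_sub ρ hij]
  exact sub_mem (mem_Bd ⟨_, rfl⟩) (one_mem _)

/-- **a factor `SL₂`** -/
theorem piece [Fintype K] [Nontrivial A] (h : 4 ≤ Fintype.card K) (ρ : Matrix (Fin 2) (Fin 2) K →+* A)
    (hc : Subring.center A ≤ ρ.range) :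
    QS (slU ρ).range ∧ HasUni (slU ρ).range ∧ TyI (slU ρ).range ∧ IsSimpleRing (Bd (slU ρ).range) := by
  refine ⟨qs_range (qs_sl2 h) _ fun h0 => ?_, hasUni_slU ρ, tyI_slU ρ, ?_⟩
  · obtain ⟨v, hv, h1, -⟩ := hasUni_slU ρ
    rw [h0] at hv
    exact h1 hv
  · rw [Bd_slU ρ hc]
    exact IsSimpleRing.of_ringEquiv (RingEquiv.ofBijective ρ.rangeRestrict
      ⟨fun a b hab => ρ.injective (congrArg Subtype.val hab), ρ.rangeRestrict_surjective⟩) inferInstance

end piece

section model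

variable {A : Type} [Ring A] {K V : Type} [Field K] [AddCommGroup V] [Module K V]

/-- linear automorphisms as units -/
noncomputable def lift (e : A ≃+* End K V) : (V ≃ₗ[K] V) →* Aˣ := (P5.toLE e).symm.toMonoidHom

theorem toLE_lift (e : A ≃+* End K V) (g : V ≃ₗ[K] V) : P5.toLE e (lift e g) = g := (P5.toLE e).apply_symm_apply g

theorem lift_toLE (e : A ≃+* End K V) (u : Aˣ) : lift e (P5.toLE e u) = u := (P5.toLE e).symm_apply_apply u

theorem ap_lift (e : A ≃+* End K V) (g : V ≃ₗ[K] V) (v : V) : e (lift e g) v = g v := by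
  rw [← P5.toLE_apply, toLE_lift]

theorem ext_ap (e : A ≃+* End K V) {a b : A} (h : ∀ v, e a v = e b v) : a = b := e.injective (LinearMap.ext h)

variable [StarRing A] {F : FR A} {e : A ≃+* End K V}

theorem Iso_eq {X : Subgroup (V ≃ₗ[K] V)} (h : ∀ u : Aˣ, u ∈ F.Iso ↔ P5.toLE e u ∈ X) : F.Iso = X.map (lift e) := by
  ext u
  rw [h]
  exact ⟨fun hu => ⟨_, hu, lift_toLE e u⟩, by rintro ⟨g, hg, rfl⟩; rwa [toLE_lift]⟩

theorem Dr_eq {X : Subgroup (V ≃ₗ[K] V)} (h : ∀ u : Aˣ, u ∈ F.Iso ↔ P5.toLE e u ∈ X) : Dr F = ⁅X, X⁆.map (lift e) := by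
  rw [Dr, Iso_eq h, Subgroup.map_commutator]

theorem Dr_eq' {X : Subgroup (V ≃ₗ[K] V)} (h : ∀ u : Aˣ, u ∈ F.Iso ↔ P5.toLE e u ∈ X) :
    Dr F = (commutator X).map ((lift e).comp X.subtype) := by
  rw [Dr_eq h, ← Subgroup.map_map, commutator_def, Subgroup.map_commutator _ _ X.subtype,
    ← MonoidHom.range_eq_map, Subgroup.range_subtype]

/-- change of the model -/
theorem iso_congr {W : Type} [AddCommGroup W] [Module K W] {q : V → K} {q' : W → K} (g : V ≃ₗ[K] W) {c : K} (hc : c ≠ 0)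
    (hq : ∀ v, q v = c * q' (g v)) (h : ∀ u : Aˣ, u ∈ F.Iso ↔ ∀ v, q (e u v) = q v) (u : Aˣ) :
    u ∈ F.Iso ↔ P5.toLE (e.trans g.conjRingEquiv) u ∈ OrthFourCommon.isom q' := by
  rw [h, OrthFourCommon.mem_isom, g.surjective.forall]
  refine forall_congr' fun v => ?_
  rw [hq, hq, mul_right_inj' hc, P5.toLE_apply]
  change _ ↔ q' (g (e u (g.symm (g v)))) = _
  rw [g.symm_apply_apply]

open OrthFourPlus in
/-- **`O₄⁺`** -/
theorem qsc_plus [Fintype K] {e : A ≃+* End K (M K)}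
    (h : ∀ u : Aˣ, u ∈ F.Iso ↔ P5.toLE e u ∈ OrthFourCommon.isom (dt K)) (hL : F.L ≠ Lmax A ∨ (2 : A) ≠ 0) : QSC F := by
  let φ := ((lift e).comp (OrthFourCommon.isom (dt K)).subtype).comp (phi (F := K))
  by_cases h4 : 4 ≤ Fintype.card K
  swap
  · have := solv_sl2 h4
    refine Or.inl (solv_of_le φ inferInstance ?_)
    rw [Dr_eq' h, MonoidHom.range_comp]
    exact Subgroup.map_mono commutator_le
  have hA : Nontrivial A := e.toEquiv.nontrivial
  obtain ⟨a, ha, ha'⟩ := Vec.exists_sq_ne h4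
  have hr : Dr F = φ.range := by
    rw [Dr_eq' h, MonoidHom.range_comp, le_antisymm commutator_le (le_commutator a ha fun h1 => ha' (by rw [h1, one_pow]))]
  let ρ : M K →+* A := (e.symm : End K (M K) →+* A).comp (Algebra.lmul K (M K) : M K →+* End K (M K))
  have hρ : ∀ X Y : M K, e (ρ X) Y = X * Y := fun X Y => congrArg (fun f : End K (M K) => f Y) (e.apply_symm_apply _)
  let τ : Aˣ := lift e tauLin
  let ρ' : M K →+* A := (DS.Cl.cj A τ : A →+* A).comp ρ
  have hc : ∀ c ∈ Subring.center A, ∃ X, ρ X = c := fun c hc => by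
    obtain ⟨k, rfl⟩ := P5.exists_smul e hc
    exact ⟨k • 1, ext_ap e fun Y => by rw [hρ, e.apply_symm_apply, Matrix.smul_mul, one_mul]; rfl⟩
  have h1 : ∀ s, slU ρ s = φ (s, 1) := fun s => Units.ext (ext_ap e fun Y => by
    rw [slU_val, hρ]
    refine Eq.trans ?_ (ap_lift e _ Y).symm
    change _ = s.1 * Y * (((Matrix.SpecialLinearGroup.toGL (1 : SL(2, K)))⁻¹ : GL (Fin 2) K) : M K)
    rw [map_one, inv_one, Units.val_one, mul_one])
  have h2 : ∀ s, slU ρ' s = φ (1, s) := fun s => by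
    have h3 : slU ρ' s = τ * slU ρ s * τ⁻¹ := Units.ext rfl
    have h5 := congrArg ((lift e).comp (OrthFourCommon.isom (dt K)).subtype) (tau_conj (inc (s, 1)))
    rw [map_mul, map_mul, map_inv] at h5
    rw [h3, h1]
    exact h5
  refine Or.inr (Or.inr ⟨hL, (slU ρ).range, (slU ρ').range, ?_, ?_, ?_⟩)
  · rw [hr]
    refine le_antisymm (sup_le ?_ ?_) ?_
    · rintro _ ⟨s, rfl⟩
      exact ⟨_, (h1 s).symm⟩
    · rintro _ ⟨s, rfl⟩
      exact ⟨_, (h2 s).symm⟩
    · rintro _ ⟨⟨s, t⟩, rfl⟩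
      rw [show (s, t) = (s, 1) * (1, t) by simp, map_mul, ← h1, ← h2]
      exact Subgroup.mul_mem_sup ⟨_, rfl⟩ ⟨_, rfl⟩
  · rintro _ ⟨s, rfl⟩ _ ⟨t, rfl⟩
    rw [h1, h2, ← map_mul, ← map_mul]
    simp
  · rintro Z (rfl | rfl)
    · exact piece h4 ρ hc
    · refine piece h4 ρ' fun c hc' => ?_
      obtain ⟨X, hX⟩ := hc c hc'
      exact ⟨X, (congrArg (DS.Cl.cj A τ) hX).trans (cj_mem_Lin τ c hc')⟩

end model

end Cfsg.Agent.Cam.Cl.Sm
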