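import Cfsg.Agent.Cam.Cl.QSmBase
import Cfsg.Agent.DS.Cl.ModO
import Cfsg.Agent.LieClassical.OrthSimple
import Cfsg.Agent.LieClassical.OrthFourMinus
import Cfsg.Agent.LieClassical.OrthThreeOmega
import Cfsg.Agent.ClassicalGeometry.PSL2Solvable

/-!
# The box QS for orthogonal groups (helper8)
-/

set_option autoImplicit false

namespace Cfsg.Agent.Cam.Cl.Sm

open Cfsg Cfsg.Agent.DS.Cl Cfsg.Agent.LieClassical Cfsg.Agent.LieClassical.OrthCore Cfsg.Agent.LieClassical.OrthTrans
  Module QuadraticMap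
open scoped commutatorElement MatrixGroups

section vec

variable {K V : Type} [Field K] [AddCommGroup V] [Module K V] {Q : QuadraticForm K V}

theorem siegel_mem_comm {x a w : V} (hx : Q x = 0) (ha : Q a ≠ 0) (hxa : polar Q x a = 0) (hxw : polar Q x w = 0)
    (haw : polar Q a w ≠ 0) : siegel Q x a hx hxa ∈ ⁅O Q, O Q⁆ := by
  obtain ⟨w, hxw, haw⟩ : ∃ w, polar Q x w = 0 ∧ polar Q a w = -Q a :=
    ⟨(-Q a / polar Q a w) • w, by rw [polar_smul_right, hxw, smul_zero], by
      rw [polar_smul_right, smul_eq_mul, div_mul_cancel₀ _ haw]⟩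
  have h1 : refl Q a ha x = x := by rw [refl_apply, polar_comm Q a x, hxa]; simp
  have h2 : refl Q a ha w = a + w := by
    rw [refl_apply, haw, mul_neg, inv_mul_cancel₀ ha, neg_smul, one_smul, sub_neg_eq_add, add_comm]
  have h3 : polar Q x (a + w) = 0 := by rw [polar_add_right, hxa, hxw, add_zero]
  have h4 := Subgroup.commutator_mem_commutator (refl_mem_O ha) (siegel_mem_O hx hxw)
  rw [commutatorElement_def, siegel_conj (refl_mem_O ha) hx hxw (by rw [h1, hx]) (by rw [h1, h2, h3]),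
    OrthSimple.siegel_congr _ _ hx h3 h1 h2, ← siegel_mul hx hxa hxw h3, mul_inv_cancel_right] at h4
  exact h4

/-- Siegel maps with a common singular vector in the commutator group -/
def Sg (Q : QuadraticForm K V) (x s w : V) : Prop :=
  ∃ (hx : Q x = 0) (hs : polar Q x s = 0) (hw : polar Q x w = 0), siegel Q x s hx hs ∈ ⁅O Q, O Q⁆ ∧
    siegel Q x w hx hw ∈ ⁅O Q, O Q⁆ ∧ polar Q s w ≠ 0

/-- Witt index one -/
def W1 (Q : QuadraticForm K V) : Prop := ∀ x y a, Hyp Q x y → polar Q x a = 0 → polar Q y a = 0 → Q a = 0 → a = 0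

theorem exists_ns (hQ : Nondeg Q) (hd : 3 ≤ finrank K V) {x y : V} (h : Hyp Q x y) :
    ∃ s, polar Q x s = 0 ∧ polar Q y s = 0 ∧ Q s ≠ 0 := by
  obtain ⟨a, c, h1, h2, h3, h4, h5⟩ := exists_perp2 hQ hd h
  rcases exists_nonsing h5 with h6 | h6 | h6
  · exact ⟨a, h1, h2, h6⟩
  · exact ⟨c, h3, h4, h6⟩
  · exact ⟨a + c, by rw [polar_add_right, h1, h3, add_zero], by rw [polar_add_right, h2, h4, add_zero], h6⟩

theorem sg_odd (h2 : (2 : K) ≠ 0) {x s : V} (hx : Q x = 0) (h1 : polar Q x s = 0) (hs : Q s ≠ 0) : Sg Q x s s := by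
  have h3 : polar Q s s ≠ 0 := by rw [polar_self']; exact mul_ne_zero h2 hs
  exact ⟨hx, h1, h1, siegel_mem_comm hx hs h1 h1 h3, siegel_mem_comm hx hs h1 h1 h3, h3⟩

theorem sg_w1 (hQ : Nondeg Q) (hd : 3 ≤ finrank K V) (hW : W1 Q) {x y : V} (h : Hyp Q x y) : ∃ s w, Sg Q x s w := by
  obtain ⟨a, c, h1, h2, h3, h4, h5⟩ := exists_perp2 hQ hd h
  have h6 : polar Q a c ≠ 0 := h5 ▸ one_ne_zero
  have h7 : polar Q c a ≠ 0 := by rwa [polar_comm]
  exact ⟨a, c, h.left, h1, h3,
    siegel_mem_comm _ (fun h0 => h6 (by rw [hW x y a h h1 h2 h0, polar_zero_left])) h1 h3 h6,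
    siegel_mem_comm _ (fun h0 => h7 (by rw [hW x y c h h3 h4 h0, polar_zero_left])) h3 h1 h7, h6⟩

theorem sg_good (hG : Good Q) {x s w : V} (hx : Q x = 0) (hs : polar Q x s = 0) (hw : polar Q x w = 0)
    (h : polar Q s w ≠ 0) : Sg Q x s w :=
  ⟨hx, hs, hw, hG.commutator_eq_E.ge (siegel_mem_E hx hs), hG.commutator_eq_E.ge (siegel_mem_E hx hw), h⟩

theorem w1_minus {ζ : K} (hζ : ∀ t : K, t ^ 2 + t + ζ ≠ 0) (g : V ≃ₗ[K] ((Fin 1 ⊕ Fin 1) ⊕ Fin 2 → K))
    (hg : ∀ v, Q v = quadFormMinus 1 K 1 ζ (g v)) : W1 Q := by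
  have han : ∀ z₁ z₂ : K, z₁ ^ 2 + 1 * z₁ * z₂ + ζ * z₂ ^ 2 = 0 → z₁ = 0 ∧ z₂ = 0 := by
    intro z₁ z₂ h
    by_cases h2 : z₂ = 0
    · rw [h2] at h
      exact ⟨by simpa using h, h2⟩
    · refine absurd ?_ (hζ (z₁ / z₂))
      field_simp
      linear_combination h
  intro x y a h h1 h2 h3
  suffices H : ∃ c : K, a = c • x by
    obtain ⟨c, rfl⟩ := H
    rw [polar_smul_right, h.pair', smul_eq_mul, mul_one] at h2
    rw [h2, zero_smul]
  have h4 := h.left
  have h5 : Q (x + a) = 0 := by rw [Q_add, h4, h3, h1]; simp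
  have h6 : g x ≠ 0 := fun h0 => h.left_ne (g.map_eq_zero_iff.1 h0)
  rw [hg] at h3 h4 h5
  rw [map_add] at h5
  simp only [← g.injective.eq_iff, map_smul]
  generalize g x = x at h4 h5 h6
  generalize g a = a at h3 h5
  simp only [quadFormMinus, Fin.sum_univ_one, Pi.add_apply] at h3 h4 h5
  have hext : ∀ c : K, a (.inl (.inl 0)) = c * x (.inl (.inl 0)) → a (.inl (.inr 0)) = c * x (.inl (.inr 0)) →
      a (.inr 0) = c * x (.inr 0) → a (.inr 1) = c * x (.inr 1) → a = c • x := fun c e1 e2 e3 e4 => by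
    ext ((i | i) | i) <;> fin_cases i <;> assumption
  by_cases h7 : x (.inl (.inl 0)) = 0
  · obtain ⟨h8, h9⟩ := han (x (.inr 0)) (x (.inr 1)) (by linear_combination h4 - x (.inl (.inr 0)) * h7)
    have h10 : x (.inl (.inr 0)) ≠ 0 := fun h0 => h6 (by
      ext ((i | i) | i) <;> fin_cases i <;> assumption)
    have h11 : a (.inl (.inl 0)) = 0 := by
      rw [h7, h8, h9] at h5
      exact (mul_eq_zero.1 (by linear_combination h5 - h3 : a (.inl (.inl 0)) * x (.inl (.inr 0)) = 0)).resolve_right h10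
    obtain ⟨h12, h13⟩ := han (a (.inr 0)) (a (.inr 1)) (by linear_combination h3 - a (.inl (.inr 0)) * h11)
    exact ⟨a (.inl (.inr 0)) / x (.inl (.inr 0)), hext _ (by rw [h7, h11, mul_zero]) (div_mul_cancel₀ _ h10).symm
      (by rw [h8, h12, mul_zero]) (by rw [h9, h13, mul_zero])⟩
  · obtain ⟨c, hc⟩ : ∃ c, a (.inl (.inl 0)) = c * x (.inl (.inl 0)) := ⟨_, (div_mul_cancel₀ _ h7).symm⟩
    rw [hc] at h3 h5
    obtain ⟨h8, h9⟩ := han (a (.inr 0) - c * x (.inr 0)) (a (.inr 1) - c * x (.inr 1))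
      (by linear_combination (1 + c) * h3 + (c + c ^ 2) * h4 - c * h5)
    rw [sub_eq_zero] at h8 h9
    refine ⟨c, hext c hc (mul_left_cancel₀ h7 ?_) h8 h9⟩
    rw [h8, h9] at h3 h5
    linear_combination h5 - h3 - (1 + 2 * c) * h4

/-- involutions of determinant one in dimension three -/
theorem fix_one (h2 : (2 : K) ≠ 0) (hd : finrank K V = 3) {a : End K V} (ha : ∀ v, a (a v) = v)
    (hdet : LinearMap.det a = 1) (h1 : a ≠ 1) {v w : V} (h0 : v ≠ 0) (hv : a v = v) (hw : a w = w) :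
    ∃ c : K, c • v = w := by
  by_contra hcon
  obtain ⟨z, hz⟩ : ∃ z, a z - z ≠ 0 := by
    by_contra h3
    push Not at h3
    exact h1 (LinearMap.ext fun z => sub_eq_zero.1 (h3 z))
  have hu : a (a z - z) = -(a z - z) := by rw [map_sub, ha, neg_sub]
  generalize a z - z = u at hz hu
  have hli : LinearIndependent K ![u, w, v] := by
    rw [Fintype.linearIndependent_iff]
    intro g hg
    rw [Fin.sum_univ_three] at hg
    change g 0 • u + g 1 • w + g 2 • v = 0 at hg
    have h3 := congrArg a hg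
    rw [map_add, map_add, map_smul, map_smul, map_smul, hu, hv, hw, map_zero] at h3
    have h4 : (2 * g 0) • u = 0 := by linear_combination (norm := module) hg - h3
    have h5 : g 0 = 0 := (mul_eq_zero.1 ((smul_eq_zero.1 h4).resolve_right hz)).resolve_left h2
    rw [h5, zero_smul, zero_add] at hg
    have h6 : g 1 = 0 := by
      by_contra h6
      exact hcon ⟨-(g 2 / g 1), smul_right_injective V h6 (by
        change g 1 • _ = g 1 • _
        rw [smul_smul, mul_neg, mul_div_cancel₀ _ h6, neg_smul, neg_eq_iff_add_eq_zero, add_comm, hg])⟩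
    rw [h6, zero_smul, zero_add] at hg
    intro i
    fin_cases i
    · exact h5
    · exact h6
    · exact (smul_eq_zero.1 hg).resolve_right h0
  let b := basisOfLinearIndependentOfCardEqFinrank hli (by rw [hd]; rfl)
  have hb : ⇑b = ![u, w, v] := coe_basisOfLinearIndependentOfCardEqFinrank _ _
  have h3 : LinearMap.toMatrix b b a = Matrix.diagonal ![-1, 1, 1] := by
    ext i j
    have h4 : a (b j) = (![-1, 1, 1] j : K) • b j := by
      rw [hb]
      fin_cases j <;> simp [hu, hv, hw]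
    rw [LinearMap.toMatrix_apply, h4, map_smul, Basis.repr_self, Matrix.diagonal_apply, Finsupp.smul_apply,
      Finsupp.single_apply]
    by_cases h5 : i = j
    · simp [h5]
    · simp [h5, Ne.symm h5]
  rw [← LinearMap.det_toMatrix b, h3, Matrix.det_diagonal, Fin.prod_univ_three] at hdet
  exact h2 (by simp at hdet; linear_combination -hdet)

end vec

section main

variable {A : Type} [Ring A] {K V : Type} [Field K] [AddCommGroup V] [Module K V] {Q : QuadraticForm K V}
  (e : A ≃+* End K V)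

theorem ap_siegel {x s : V} (hx : Q x = 0) (hs : polar Q x s = 0) (v : V) :
    e ((lift e (siegel Q x s hx hs) : A) - 1) v = polar Q x v • s - (polar Q s v + Q s * polar Q x v) • x := by
  rw [map_sub, map_one, LinearMap.sub_apply, ap_lift, siegel_apply, End.one_apply]
  module

include e in
theorem two_iff [Nontrivial V] : (2 : A) = 0 ↔ (2 : K) = 0 := by
  rw [← e.map_eq_zero_iff, map_ofNat, ← map_ofNat (algebraMap K (End K V)), map_eq_zero]

variable {e} [StarRing A] {F : FR A} (h : ∀ u : Aˣ, u ∈ F.Iso ↔ P5.toLE e u ∈ O Q)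
include h

theorem lift_mem {g : V ≃ₗ[K] V} (hg : g ∈ ⁅O Q, O Q⁆) : lift e g ∈ Dr F := by
  rw [Dr_eq h]
  exact ⟨g, hg, rfl⟩

omit [StarRing A] h in
theorem uni_of_sg {x s w : V} (h0 : x ≠ 0) (hx : Q x = 0) (hs : polar Q x s = 0) (hw : polar Q x w = 0)
    (hsw : polar Q s w ≠ 0) : lift e (siegel Q x s hx hs) ≠ 1 ∧ Uni (lift e (siegel Q x s hx hs)) := by
  refine ⟨fun h1 => ?_, 3, ext_ap e fun v => ?_⟩
  · have h2 := ap_siegel e hx hs w
    rw [h1, Units.val_one, sub_self, map_zero, hw] at h2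
    simp [h0, hsw] at h2
  · rw [pow_three, map_mul, map_mul, End.mul_apply, End.mul_apply, ap_siegel, ap_siegel, ap_siegel]
    simp [polar_sub_right, polar_smul_right, hs, polar_self_of_sing hx, polar_comm Q s x]

theorem hasUni_of {x s w : V} (h0 : x ≠ 0) (H : Sg Q x s w) : HasUni (Dr F) := by
  obtain ⟨hx, hs, hw, h1, -, h2⟩ := H
  exact ⟨_, lift_mem h h1, uni_of_sg h0 hx hs hw h2⟩

theorem tyR_of (h2 : (2 : K) ≠ 0) {x s w r : V} (h0 : x ≠ 0) (H : Sg Q x s w) (hr : Q r ≠ 0) (hxr : polar Q x r = 0)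
    (hsr : polar Q s r = 0) : TyR (Dr F) 1 := by
  obtain ⟨hx, hs, hw, h1, -, h3⟩ := H
  have h4 : ∀ v, e (e.symm ((polarBilin Q r).smulRight r)) v = polar Q r v • r := fun v => by
    rw [e.apply_symm_apply]; rfl
  refine ⟨_, lift_mem h h1, (uni_of_sg h0 hx hs hw h3).1, (uni_of_sg h0 hx hs hw h3).2,
    e.symm ((polarBilin Q r).smulRight r), e.symm ((polarBilin Q r).smulRight r), ext_ap e fun v => ?_,
    ext_ap e fun v => ?_, fun h5 => ?_⟩
  · rw [map_mul, End.mul_apply, h4, ap_siegel]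
    simp [polar_comm Q r, hxr, hsr]
  · rw [map_mul, End.mul_apply, h4, ap_siegel]
    simp [polar_smul_right, hxr, hsr]
  · have h6 := congrArg (fun a => e a r) h5
    simp only [mul_one, map_mul, End.mul_apply, h4, polar_smul_right, polar_self', map_zero, LinearMap.zero_apply,
      smul_eq_mul, smul_eq_zero, mul_eq_zero, h2, hr, false_or] at h6
    exact hr (by rw [h6, map_zero])

theorem span_of [Finite K] [Finite V] (hQ : Nondeg Q) (hne : ∃ x, x ≠ 0 ∧ Q x = 0)
    (H : ∀ x, x ≠ 0 → Q x = 0 → ∃ s w, Sg Q x s w) : F.Span := by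
  let R : Subring (Fwd.orH Q hQ).EB := (Bd (Dr F)).comap (e.symm : End K V →+* A)
  have hR : R = ⊤ := by
    refine (Fwd.orH Q hQ).span_top R (fun c => cen_mem_Bd _ (P5.cen_smul e c)) {x | x ≠ 0 ∧ Q x = 0} hne
      (fun x hx => hx.1) (fun x hx => ?_) (fun x hx v hv => ?_)
    · obtain ⟨s, w, h0, hs, hw, h1, h2, h3⟩ := H x hx.1 hx.2
      have h4 := mul_mem (cen_mem_Bd (Dr F) (P5.cen_smul e (-(polar Q s w)⁻¹)))
        (mul_mem (sub_mem (mem_Bd (lift_mem h h1)) (one_mem _)) (sub_mem (mem_Bd (lift_mem h h2)) (one_mem _)))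
      change e.symm ((Fwd.orH Q hQ).ro x x) ∈ Bd (Dr F)
      convert h4 using 1
      refine ext_ap e fun v => ?_
      rw [e.apply_symm_apply, map_mul, map_mul, End.mul_apply, End.mul_apply, ap_siegel, ap_siegel, e.apply_symm_apply,
        LinearMap.smul_apply, End.one_apply]
      change polar Q v x • x = _
      simp only [polar_sub_right, polar_smul_right, hw, polar_self_of_sing h0, polar_comm Q s x, hs, polar_comm Q v x,
        smul_eq_mul, mul_zero, sub_zero, zero_smul, add_zero, zero_sub, smul_neg, smul_smul]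
      rw [mul_comm (polar Q x v), neg_mul, inv_mul_cancel_left₀ h3, neg_smul, neg_neg]
    · have hv' : polar Q v x ≠ 0 := hv
      have h1 : polar Q (v + (-(Q v) / polar Q v x) • x) x = polar Q v x := by
        rw [polar_add_left, polar_smul_left, polar_self_of_sing hx.2, smul_zero, add_zero]
      refine ⟨-(Q v) / polar Q v x, ⟨fun h0 => hv' ?_, ?_⟩, fun h0 => hv' (h1.symm.trans h0)⟩
      · rw [← h1, h0, polar_zero_left]
      · rw [Q_add, QuadraticMap.map_smul, hx.2, smul_zero, add_zero, polar_smul_right, smul_eq_mul]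
        field_simp
        ring
  refine eq_top_iff.2 fun a _ => ?_
  have h1 : e a ∈ R := by rw [hR]; trivial
  rw [← e.symm_apply_apply a]
  exact h1

omit h in
theorem det_of_mem [FiniteDimensional K V] {u : Aˣ} (hu : u ∈ Dr F) : LinearMap.det (e u) = 1 := by
  let δ : Aˣ →* Kˣ := Units.map (LinearMap.det.comp (e : A →* End K V))
  have h1 : Dr F ≤ δ.ker := by
    rw [Dr, Subgroup.commutator_le]
    intro a _ b _
    rw [MonoidHom.mem_ker, map_commutatorElement, commutatorElement_eq_one_iff_mul_comm, mul_comm]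
  exact congrArg Units.val (MonoidHom.mem_ker.1 (h1 hu))

theorem tyII_of [FiniteDimensional K V] (h2 : (2 : K) ≠ 0) (hd : finrank K V = 3) (hs : F.Span) {s : V} (hQ : Q s ≠ 0) :
    TyII (Dr F) 1 := by
  have : Nontrivial V := Module.nontrivial_of_finrank_pos (R := K) (by omega)
  refine ⟨?_, fun t ht hc => ?_, fun a ha b hb h3 h4 h5 h6 h7 h8 => ?_⟩
  · have h3 := ((IsUnit.mk0 _ h2).map (algebraMap K (End K V))).map e.symm
    rwa [map_ofNat, map_ofNat] at h3
  · obtain ⟨c, hc'⟩ := P5.exists_smul e (z := t) (Subring.mem_center_iff.2 fun x =>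
      (comm_Bd (T := Dr F) (fun u hu => congrArg Units.val (hc u hu)) (hs.ge (Subring.mem_top x))).symm)
    have h3 := det_of_mem (e := e) ht
    have h4 := (h t).1 (Dr_le F ht) s
    rw [P5.toLE_apply, hc', e.apply_symm_apply, LinearMap.smul_apply, QuadraticMap.map_smul, End.one_apply,
      smul_eq_mul, mul_eq_right₀ hQ] at h4
    rw [hc', e.apply_symm_apply, LinearMap.det_smul, map_one, hd, mul_one, pow_three', h4, one_mul] at h3
    rw [h3, one_smul, map_one] at hc'
    exact Units.ext hc'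
  · have hf : ∀ u ∈ Dr F, u * u = 1 → u ≠ 1 → ∀ v, v ≠ 0 → e u v = v → ∀ w, ∃ c : K, e u w = c • v - w := by
      intro u hu e1 e2 v h0 hv w
      have e3 : ∀ w, e u (e u w) = w := fun w => by
        rw [← End.mul_apply, ← map_mul, ← Units.val_mul, e1, Units.val_one, map_one, End.one_apply]
      obtain ⟨c, hc⟩ := fix_one h2 hd e3 (det_of_mem hu) (fun e4 => e2 (Units.ext (e.map_eq_one_iff.1 e4))) h0 hv
        (w := e u w + w) (by rw [map_add, e3, add_comm])
      exact ⟨c, by rw [hc, add_sub_cancel_right]⟩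
    refine ext_ap e fun z => ?_
    by_contra h0
    rw [map_zero, LinearMap.zero_apply, mul_one] at h0
    have h3' : (a : A) * a = 1 := congrArg Units.val h3
    have h4' : (b : A) * b = 1 := congrArg Units.val h4
    have h5' : (a : A) * b = b * a := congrArg Units.val h5
    have ea : e a (e ((1 + (a : A)) * (1 + (b : A))) z) = e ((1 + (a : A)) * (1 + (b : A))) z := by
      rw [← End.mul_apply, ← map_mul, ← mul_assoc, mul_add (a : A), h3', mul_one, add_comm (a : A)]
    have eb : e b (e ((1 + (a : A)) * (1 + (b : A))) z) = e ((1 + (a : A)) * (1 + (b : A))) z := by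
      rw [← End.mul_apply, ← map_mul, ← mul_assoc, mul_add (b : A), ← h5', mul_one, ← one_add_mul, mul_assoc,
        mul_add (b : A), h4', mul_one, add_comm (b : A)]
    generalize e ((1 + (a : A)) * (1 + (b : A))) z = v at h0 ea eb
    have h9 : finrank K V ≤ 1 := finrank_le_one_iff.2 ⟨v, fun w => by
      obtain ⟨c₁, e1⟩ := hf a ha h3 h6 v h0 ea w
      obtain ⟨c₂, e2⟩ := hf b hb h4 h7 v h0 eb w
      obtain ⟨c₃, e3⟩ := hf (a * b) (mul_mem ha hb) (by rw [mul_assoc, ← mul_assoc b, ← h5, mul_assoc a, h4, mul_one, h3])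
        (fun h1 => h8 (by rw [← mul_one a, ← h4, ← mul_assoc, h1, one_mul])) v h0
        (by rw [Units.val_mul, map_mul, End.mul_apply, eb, ea]) w
      rw [Units.val_mul, map_mul, End.mul_apply, e2, map_sub, map_smul, ea, e1] at e3
      refine ⟨(c₃ + c₁ - c₂) / 2, smul_right_injective V h2 ?_⟩
      change (2 : K) • _ = (2 : K) • _
      rw [smul_smul, mul_div_cancel₀ _ h2]
      linear_combination (norm := module) -e3⟩
    omega

theorem qs_good (hG : Good Q) : QS (Dr F) := by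
  rw [Dr_eq h, hG.commutator_eq_E, ← (E Q).range_subtype, ← MonoidHom.range_comp]
  refine qs_range (qs_of_simple ?_ (OrthSimple.good_isSimpleGroup hG)) _ fun h0 => ?_
  · rw [eq_top_iff, ← Subgroup.map_le_map_iff_of_injective (E Q).subtype_injective, commutator_def,
      Subgroup.map_commutator, ← MonoidHom.range_eq_map, Subgroup.range_subtype, hG.E_perfect]
  · obtain ⟨g, hg, h1⟩ := OrthSimple.good_E_ne_bot hG
    have h2 : lift e g ∈ ((lift e).comp (E Q).subtype).range := ⟨⟨g, hg⟩, rfl⟩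
    rw [h0, Subgroup.mem_bot] at h2
    exact h1 (by rw [← toLE_lift e g, h2, map_one])

theorem solv_of_O (hs : Group.IsSolvable (O Q)) : QSC F :=
  Or.inl (solv_of_le ((lift e).comp (O Q).subtype) hs (by
    rw [MonoidHom.range_comp, Subgroup.range_subtype, ← Iso_eq h]; exact Dr_le F))

end main

theorem ne_bot_of_uni {A : Type} [Ring A] {T : Subgroup Aˣ} (h : HasUni T) : T ≠ ⊥ := by
  rintro rfl
  obtain ⟨v, hv, h1, -⟩ := h
  exact h1 hv

/-- **QS for the orthogonal groups** -/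
theorem qsc_O {A : Type} [Ring A] [StarRing A] [Finite A] (F : FR A) {K V : Type} [Field K] [Fintype K] [AddCommGroup V]
    [Module K V] [Finite V] {Q : QuadraticForm K V} (hQ : Nondeg Q) (e : A ≃+* End K V)
    (hiso : ∀ u : Aˣ, u ∈ F.Iso ↔ ∀ v, Q (e u v) = Q v) (hL : F.L ≠ Lmax A ∨ (2 : A) ≠ 0) : QSC F := by
  have h : ∀ u : Aˣ, u ∈ F.Iso ↔ P5.toLE e u ∈ O Q := hiso
  have : FiniteDimensional K V := Module.Finite.of_finite
  have hQ' : (polarBilin Q).Nondegenerate :=
    ⟨fun x hx => hQ x hx, fun x hx => hQ x fun y => by rw [polar_comm]; exact hx y⟩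
  by_cases h1 : finrank K V ≤ 1
  · refine solv_of_O h (Group.isSolvable_of_comm fun a b => Subtype.ext ?_)
    obtain ⟨v, hv⟩ := finrank_le_one_iff.1 h1
    obtain ⟨s, hs⟩ := hv (a.1 v)
    obtain ⟨t, ht⟩ := hv (b.1 v)
    ext w
    obtain ⟨c, rfl⟩ := hv w
    change a.1 (b.1 (c • v)) = b.1 (a.1 (c • v))
    simp only [map_smul, ← hs, ← ht, smul_smul]
    rw [mul_right_comm]
  have hnt : Nontrivial V := Module.nontrivial_of_finrank_pos (R := K) (by omega)
  have hL' : (2 : K) = 0 → F.L ≠ Lmax A := fun h2 => hL.resolve_right fun h3 => h3 ((two_iff e).2 h2)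
  by_cases h2 : finrank K V = 2 * 1
  · have hD := ClassicalGeometry.PSL2Solvable.isSolvable_dihedral
    rcases H174.exists_std le_rfl h2 Q hQ' with ⟨g, hg⟩ | ⟨ζ, g, hζ, hg⟩
    · obtain ⟨φ⟩ := Vec.O_equiv g _ Q one_ne_zero fun v => by rw [one_mul, hg]
      obtain ⟨ψ⟩ := Cfsg.Agent.S0305.result (F := K) rfl
      exact solv_of_O h (Group.isSolvable_of_surjective (f := (ψ.symm.trans φ).toMonoidHom) (ψ.symm.trans φ).surjective)
    · obtain ⟨φ⟩ := Vec.O_equiv g _ Q one_ne_zero fun v => by rw [one_mul, hg]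
      obtain ⟨ψ⟩ := Cfsg.Agent.S0306.result (F := K) rfl 1 ζ fun z₁ z₂ h3 => by
        by_cases h4 : z₂ = 0
        · rw [h4] at h3
          exact ⟨by simpa using h3, h4⟩
        · refine absurd ?_ (hζ (z₁ / z₂))
          field_simp
          linear_combination h3
      exact solv_of_O h (Group.isSolvable_of_surjective (f := (ψ.symm.trans φ).toMonoidHom) (ψ.symm.trans φ).surjective)
  have h3 : 3 ≤ finrank K V := by omega
  obtain ⟨x, -, h0, hx⟩ := OrthFinite.exists_sing_mem (Q := Q) ⊤ (by rwa [finrank_top])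
  obtain ⟨y, hxy⟩ := exists_hyp hQ hx h0
  obtain ⟨s, hxs, hys, hs⟩ := exists_ns hQ h3 hxy
  have hodd : (2 : K) ≠ 0 → F.Span := fun h4 => span_of h hQ ⟨x, h0, hx⟩ fun x h0 hx => by
    obtain ⟨y, hxy⟩ := exists_hyp hQ hx h0
    obtain ⟨s, hxs, -, hs⟩ := exists_ns hQ h3 hxy
    exact ⟨s, s, sg_odd h4 hx hxs hs⟩
  by_cases h5 : 5 ≤ finrank K V
  · have hG := OrthFinite.good_of_finite hQ h5
    obtain ⟨z, w, hzw, e1, e2, e3, e4⟩ := hG.exists_hyp2 hxy
    have h6 := sg_good hG hx e1 e2 (hzw.pair ▸ one_ne_zero)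
    refine Or.inr (Or.inl ⟨qs_good h hG, span_of h hQ ⟨x, h0, hx⟩ fun x h0 hx => ?_, hasUni_of h h0 h6, ?_⟩)
    · obtain ⟨y, hxy⟩ := exists_hyp hQ hx h0
      obtain ⟨a, c, e1, -, e2, -, e3⟩ := exists_perp2 hQ h3 hxy
      exact ⟨a, c, sg_good hG hx e1 e2 (e3 ▸ one_ne_zero)⟩
    by_cases h4 : (2 : K) = 0
    · exact Or.inr (hL' h4)
    obtain ⟨a, c, ha, hc, hac⟩ := exists_perp4 hQ h5 hxy hzw e1 e2 e3 e4
    refine Or.inl (Or.inl ?_)
    rcases exists_nonsing hac with h7 | h7 | h7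
    · exact tyR_of h h4 h0 h6 h7 ha.1 ha.2.2.1
    · exact tyR_of h h4 h0 h6 h7 hc.1 hc.2.2.1
    · exact tyR_of h h4 h0 h6 h7 (by rw [polar_add_right, ha.1, hc.1, add_zero])
        (by rw [polar_add_right, ha.2.2.1, hc.2.2.1, add_zero])
  by_cases h6 : finrank K V = 2 * 2
  · rcases H174.exists_std (by norm_num) h6 Q hQ' with ⟨g, hg⟩ | ⟨ζ, g, hζ, hg⟩
    · exact qsc_plus (iso_congr (g.trans (OrthFourPlus.coord K)) one_ne_zero
        (fun v => by rw [one_mul, hg, LinearEquiv.trans_apply, OrthFourPlus.coord_det]) hiso) hL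
    have hW := w1_minus hζ g hg
    have : Fact (∀ r : K, r ^ 2 ≠ -ζ + 1 * r) := ⟨fun r hr => hζ (-r) (by linear_combination hr)⟩
    let _ : Fintype (OrthFourMinus.E K (-ζ) 1) := Fintype.ofEquiv _ (QuadraticAlgebra.equivProd (-ζ) 1).symm
    have h7 : 4 ≤ Fintype.card (OrthFourMinus.E K (-ζ) 1) := by
      have : 1 < Fintype.card K := Fintype.one_lt_card
      rw [Fintype.card_congr (QuadraticAlgebra.equivProd (-ζ) 1), Fintype.card_prod]
      nlinarith
    obtain ⟨a, c, h8⟩ := sg_w1 hQ h3 hW hxy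
    have h9 := hasUni_of h h0 h8
    refine Or.inr (Or.inl ⟨?_, span_of h hQ ⟨x, h0, hx⟩ fun x h0 hx => ?_, h9, ?_⟩)
    · have h10 := Dr_eq' (iso_congr (q' := OrthFourMinus.Q (-ζ) 1) (g.trans (OrthFourMinus.coord K (-ζ) 1)) one_ne_zero
        (fun v => by rw [one_mul, hg, LinearEquiv.trans_apply, OrthFourMinus.Q_coord]) hiso)
      rw [le_antisymm (OrthFourMinus.commutator_le' (OrthFourMinus.exists_eq OrthFourMinus.norm_surjective))
        OrthFourMinus.le_commutator, ← MonoidHom.range_comp] at h10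
      rw [h10] at h9 ⊢
      exact qs_range (qs_sl2 h7) _ (ne_bot_of_uni h9)
    · obtain ⟨y, hxy⟩ := exists_hyp hQ hx h0
      exact sg_w1 hQ h3 hW hxy
    by_cases h4 : (2 : K) = 0
    · exact Or.inr (hL' h4)
    obtain ⟨r, hr, hr'⟩ := exists_perp_ne (Q := Q) ![x, y, s] (by omega)
    exact Or.inl (Or.inl (tyR_of h h4 h0 (sg_odd h4 hx hxs hs) (fun e1 => hr (hW x y r hxy (hr' 0) (hr' 1) e1))
      (hr' 0) (hr' 2)))
  have h7 : finrank K V = 2 * 1 + 1 := by omega
  obtain ⟨c, e3, e4, e5, e6, -⟩ := Cfsg.Agent.S2618.result h7 Q hQ'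
  have hc : ∀ v, v = c.repr v (.inl ()) • c (.inl ()) + (c.repr v (.inr (.inl 0)) • c (.inr (.inl 0)) +
      c.repr v (.inr (.inr 0)) • c (.inr (.inr 0))) := by
    intro v
    conv_lhs => rw [← c.sum_repr v]
    simp only [Fintype.sum_sum_type, Fintype.sum_unique]
    rfl
  have e7 := e6 0 0
  rw [if_pos rfl] at e7
  have h4 : (2 : K) ≠ 0 := by
    intro h9
    refine c.ne_zero (.inl ()) (hQ _ fun y => ?_)
    rw [hc y]
    simp only [polar_add_right, polar_smul_right, (e4 0).1, (e4 0).2, polar_self', h9, zero_mul, smul_zero, add_zero]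
  let c' := c.unitsSMul (Sum.elim (fun _ => 1) (Sum.elim (fun _ => Units.mk0 _ e3) fun _ => 1))
  obtain ⟨φ⟩ := Vec.O_equiv c'.equivFun (quadFormOdd 1 K) Q e3 fun v => by
    conv_lhs => rw [hc v]
    simp only [Q_add, QuadraticMap.map_smul, polar_add_right, polar_smul_right, polar_smul_left, (e4 0).1, (e4 0).2,
      (e5 0).1, (e5 0).2, e7, smul_eq_mul, quadFormOdd, c', Basis.equivFun_apply, Basis.repr_unitsSMul,
      Fin.sum_univ_one, Sum.elim_inl, Sum.elim_inr, inv_one, one_smul, Units.smul_def, Units.val_inv_eq_inv_val,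
      Units.val_mk0]
    field_simp
    ring
  have h8 : Dr F = (((lift e).comp (O Q).subtype).comp (φ.toMonoidHom.comp OrthThreeOmega.psi)).range := by
    rw [Dr_eq' h, MonoidHom.range_comp, MonoidHom.range_comp φ.toMonoidHom, OrthThreeOmega.range_psi
      ⟨2, h4, fun h9 => one_ne_zero (α := K) (by linear_combination h9)⟩, Omega, commutator_def, commutator_def,
      Subgroup.map_commutator _ _ φ.toMonoidHom, Subgroup.map_top_of_surjective _ φ.surjective]
  by_cases h9 : 4 ≤ Fintype.card K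
  · have h10 := hasUni_of h h0 (sg_odd h4 hx hxs hs)
    exact Or.inr (Or.inl ⟨h8 ▸ qs_range (qs_sl2 h9) _ (h8 ▸ ne_bot_of_uni h10), hodd h4, h10,
      Or.inl (Or.inr (Or.inr (Or.inr (Or.inl (tyII_of h h4 h7 (hodd h4) hs)))))⟩)
  · exact Or.inl (solv_of_le _ (solv_sl2 h9) h8.le)

end Cfsg.Agent.Cam.Cl.Sm
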