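import Cfsg.Agent.Cam.Cl.QSmBase
import Cfsg.Agent.LieClassical.SpFourTwo

/-!
# The box QS for `Sp₄(2)` (helper8)
-/

set_option autoImplicit false

namespace Cfsg.Agent.Cam.Cl.Sm

open Cfsg Cfsg.Agent.DS.Cl Cfsg.Agent.LieClassical Cfsg.Agent.LieClassical.SpFourTwo
open scoped Matrix

/-- vectors from bits -/
def wv (n : ℕ) : V := Sum.elim ![(n % 2 : ℕ), (n / 2 % 2 : ℕ)] ![(n / 4 % 2 : ℕ), (n / 8 % 2 : ℕ)]

/-- squares of products of two transvections -/
def gm (p : ℕ × ℕ) : Matrix (Fin 2 ⊕ Fin 2) (Fin 2 ⊕ Fin 2) (ZMod 2) :=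
  trans (wv p.1) * trans (wv p.2) * (trans (wv p.1) * trans (wv p.2))

/-- the matrix units as sums -/
def tb : Fin 2 ⊕ Fin 2 → Fin 2 ⊕ Fin 2 → List (ℕ × ℕ) :=
  Sum.elim
    ![Sum.elim ![[(1, 4), (1, 6), (1, 12), (1, 13), (2, 9), (2, 14), (3, 4), (4, 9), (4, 13)],
        [(1, 6), (1, 7), (2, 9), (3, 4), (3, 5), (3, 8)]]
      ![[(1, 12), (1, 13), (2, 8), (2, 9), (3, 4), (3, 5)], [(1, 4), (1, 5), (3, 4), (3, 5)]],
    Sum.elim ![[(1, 4), (1, 5), (1, 6), (3, 5)],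
        [(0, 0), (1, 6), (1, 13), (2, 8), (2, 9), (2, 12), (2, 14), (3, 8), (4, 9), (4, 13)]]
      ![[(1, 6), (1, 7), (3, 4), (3, 5)], [(0, 0), (1, 5), (1, 7), (2, 12), (2, 14), (3, 4), (3, 5)]]]
    ![Sum.elim ![[(0, 0), (1, 4), (1, 5), (1, 6), (2, 8), (2, 14), (3, 5), (4, 9), (4, 13)],
        [(1, 4), (1, 5), (1, 6), (1, 7), (1, 12), (2, 9), (3, 4), (3, 5), (3, 8), (4, 9)]]
      ![[(1, 5), (1, 6), (1, 12), (1, 13), (2, 9), (2, 14), (3, 4), (4, 9), (4, 13)],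
        [(0, 0), (1, 6), (2, 12), (2, 14), (3, 5)]],
    Sum.elim ![[(1, 6), (1, 7), (1, 12), (2, 9), (3, 4), (3, 5), (3, 8), (4, 13)],
        [(1, 4), (1, 6), (1, 7), (1, 13), (2, 9), (3, 4), (3, 5), (3, 8), (4, 9), (4, 13)]]
      ![[(1, 4), (1, 5), (1, 6), (1, 7), (1, 12), (1, 13), (2, 9), (3, 4), (3, 5), (3, 8)],
        [(1, 4), (1, 5), (1, 6), (1, 13), (2, 8), (2, 9), (2, 12), (2, 14), (3, 8), (4, 9), (4, 13)]]]

theorem single_eq : ∀ i j, Matrix.single i j 1 = ((tb i j).map gm).sum := by decide +kernel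

/-- elements of order five have no fixed vectors -/
theorem phi_five {w : Matrix (Fin 2 ⊕ Fin 2) (Fin 2 ⊕ Fin 2) (ZMod 2)} (h5 : w ^ 5 = 1) (h1 : w ≠ 1) :
    1 + w + w ^ 2 + w ^ 3 + w ^ 4 = 0 := by
  let f : Function.End V := fun v => w *ᵥ v
  have hf : ∀ n v, (f ^ n) v = w ^ n *ᵥ v := fun n => by
    induction n with
    | zero => intro v; rw [pow_zero, pow_zero, Matrix.one_mulVec]; rfl
    | succ n ih => intro v; rw [pow_succ, pow_succ, ← Matrix.mulVec_mulVec, ← ih]; rfl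
  have : Fact (Nat.Prime 5) := ⟨by norm_num⟩
  have h2 := Equiv.Perm.card_fixedPoints_modEq (f := f) (p := 5) (n := 1) (funext fun v => by
    rw [pow_one, hf, h5, Matrix.one_mulVec]; rfl)
  let S : AddSubgroup V :=
    { carrier := Function.fixedPoints f
      add_mem' := fun {a b} (ha : w *ᵥ a = a) (hb : w *ᵥ b = b) => by
        change w *ᵥ (a + b) = a + b
        rw [Matrix.mulVec_add, ha, hb]
      zero_mem' := Matrix.mulVec_zero w
      neg_mem' := fun {a} (ha : w *ᵥ a = a) => by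
        change w *ᵥ (-a) = -a
        rw [Matrix.mulVec_neg, ha] }
  have h3 : Nat.card V = 16 := by rw [Nat.card_eq_fintype_card]; simp
  have h4 : Nat.card S ∣ 16 := h3 ▸ S.card_addSubgroup_dvd_card
  rw [← Nat.card_eq_fintype_card, ← Nat.card_eq_fintype_card, h3] at h2
  change 16 % 5 = Nat.card S % 5 at h2
  have h6 : Nat.card S = 1 ∨ Nat.card S = 16 := by
    have h7 := Nat.le_of_dvd (by norm_num) h4
    generalize Nat.card S = n at h2 h4 h7
    interval_cases n <;> omega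
  rcases h6 with h6 | h6
  · refine Matrix.ext_of_mulVec_single fun i => ?_
    have h7 : (1 + w + w ^ 2 + w ^ 3 + w ^ 4) *ᵥ Pi.single i 1 ∈ S := by
      change w *ᵥ _ = _
      rw [Matrix.mulVec_mulVec, show w * (1 + w + w ^ 2 + w ^ 3 + w ^ 4) = w ^ 5 + w + w ^ 2 + w ^ 3 + w ^ 4 by
        noncomm_ring, h5]
    rw [AddSubgroup.card_eq_one.1 h6, AddSubgroup.mem_bot] at h7
    rw [h7, Matrix.zero_mulVec]
  · refine absurd (Matrix.ext_of_mulVec_single fun i => ?_) h1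
    have h7 : Pi.single i 1 ∈ S := by rw [S.eq_top_of_card_eq (h6.trans h3.symm)]; trivial
    rw [Matrix.one_mulVec]
    exact h7

variable {A : Type} [Ring A] [StarRing A] (F : FR A)

theorem qsc_Sp42' (e : A ≃+* Matrix (Fin 2 ⊕ Fin 2) (Fin 2 ⊕ Fin 2) (ZMod 2))
    (hiso : ∀ u : Aˣ, u ∈ F.Iso ↔ e u ∈ Matrix.symplecticGroup (Fin 2) (ZMod 2)) : QSC F := by
  let ι : G →* Aˣ := ((e.symm : _ →* A).comp (Matrix.symplecticGroup (Fin 2) (ZMod 2)).subtype).toHomUnits
  have hι : ∀ g : G, e (ι g) = g.1 := fun g => e.apply_symm_apply _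
  let φ : Equiv.Perm (Fin 6) →* Aˣ := ι.comp spFourTwoEquiv.symm.toMonoidHom
  have hinj : Function.Injective φ := fun a b hab => spFourTwoEquiv.symm.injective (Subtype.ext (by
    rw [← hι, ← hι]
    exact congrArg (fun u : Aˣ => e u) hab))
  have hr : φ.range = F.Iso := by
    ext u
    constructor
    · rintro ⟨g, rfl⟩
      rw [hiso]
      exact (hι _).symm ▸ (spFourTwoEquiv.symm g).2
    · intro hu
      refine ⟨spFourTwoEquiv ⟨_, (hiso u).1 hu⟩, Units.ext (e.injective ?_)⟩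
      change e (ι (spFourTwoEquiv.symm (spFourTwoEquiv _))) = _
      rw [MulEquiv.symm_apply_apply, hι]
  have hD : Dr F = (alternatingGroup (Fin 6)).map φ := by
    rw [Dr, ← hr, Fwd.comm_range, alternatingGroup.commutator_perm_eq (by simp)]
  have hmem : ∀ σ : Equiv.Perm (Fin 6), Equiv.Perm.sign σ = 1 → φ σ ∈ Dr F := fun σ hσ => hD ▸ ⟨σ, hσ, rfl⟩
  have htop : ∀ R : Subring A, (∀ u ∈ Dr F, (u : A) ∈ R) → R = ⊤ := fun R hR => by
    refine eq_top_iff.2 fun a _ => ?_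
    obtain ⟨a, rfl⟩ := e.symm.surjective a
    refine Matrix.induction_on' (P := fun a => e.symm a ∈ R) a (by rw [map_zero]; exact zero_mem _)
      (fun a b ha hb => by rw [map_add]; exact add_mem ha hb) fun i j c => ?_
    rcases (by decide : ∀ c : ZMod 2, c = 0 ∨ c = 1) c with rfl | rfl
    · rw [Matrix.single_zero, map_zero]; exact zero_mem _
    rw [single_eq, map_list_sum]
    refine list_sum_mem fun x hx => ?_
    simp only [List.map_map, List.mem_map] at hx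
    obtain ⟨p, -, rfl⟩ := hx
    obtain ⟨σ, hσ⟩ := spFourTwoEquiv.symm.surjective (⟨_, trans_mem (wv p.1)⟩ * ⟨_, trans_mem (wv p.2)⟩)
    have h1 := hR _ (hmem (σ * σ) (by rw [map_mul, Int.units_mul_self]))
    change ((ι (spFourTwoEquiv.symm (σ * σ)) : Aˣ) : A) ∈ R at h1
    rw [map_mul, hσ] at h1
    exact h1
  clear_value φ
  have h2 : (2 : A) = 0 := by rw [← e.map_eq_zero_iff, map_ofNat]; decide +kernel
  have hS := alternatingGroup.isSimpleGroup (α := Fin 6) (by simp)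
  have hcen : ∀ t ∈ alternatingGroup (Fin 6), (∀ s ∈ alternatingGroup (Fin 6), t * s = s * t) → t = 1 := by
    intro t ht hc
    rcases (inferInstance : (Subgroup.center (alternatingGroup (Fin 6))).Normal).eq_bot_or_eq_top with h1 | h1
    · have h3 : (⟨t, ht⟩ : alternatingGroup (Fin 6)) ∈ Subgroup.center _ :=
        Subgroup.mem_center_iff.2 fun s => Subtype.ext (hc s.1 s.2).symm
      rw [h1] at h3
      exact congrArg Subtype.val h3
    · have h3 : (⟨c[0, 1, 2], Equiv.Perm.mem_alternatingGroup.2 (by decide)⟩ : alternatingGroup (Fin 6)) ∈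
          Subgroup.center _ := by rw [h1]; trivial
      exact absurd (congrArg Subtype.val (Subgroup.mem_center_iff.1 h3
        ⟨c[1, 2, 3], Equiv.Perm.mem_alternatingGroup.2 (by decide)⟩)) (by decide)
  have hN : NoCen (Dr F) := by
    rw [hD]
    rintro _ ⟨t, ht, rfl⟩ hc
    rw [hcen t ht fun s hs => hinj (by rw [map_mul, map_mul, hc _ ⟨s, hs, rfl⟩]), map_one]
  have hne : ∀ σ, σ ≠ 1 → φ σ ≠ 1 := fun σ h1 h3 => h1 (hinj (h3.trans φ.map_one.symm))
  have hU : HasUni (Dr F) := by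
    refine ⟨φ (c[0, 1] * c[2, 3]), hmem _ (by decide), hne _ (by decide), 2, ?_⟩
    have h3 : φ (c[0, 1] * c[2, 3]) * φ (c[0, 1] * c[2, 3]) = 1 := by
      rw [← map_mul, ← φ.map_one]; exact congrArg φ (by decide)
    generalize φ (c[0, 1] * c[2, 3]) = v at h3
    rw [show ((v : A) - 1) ^ 2 = v * v + 1 - 2 * v by noncomm_ring, ← Units.val_mul, h3, h2, Units.val_one,
      one_add_one_eq_two, h2, zero_mul, sub_zero]
  refine Or.inr (Or.inl ⟨?_, htop _ fun u hu => mem_Bd (T := Dr F) hu, hU,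
    Or.inl (Or.inr (Or.inr (Or.inr (Or.inr ⟨h2, hN, fun w _ h5 h1 => ?_, φ c[0, 1, 2, 3, 4], hmem _ (by decide), ?_,
      hne _ (by decide), φ c[1, 2, 4, 3], ?_, φ c[1, 2, 4, 3]⁻¹, ?_, ?_⟩))))⟩)
  · have h3 : Subgroup.center (alternatingGroup (Fin 6)) = ⊥ := eq_bot_iff.2 fun t ht =>
      Subtype.ext (hcen t.1 t.2 fun s hs => (congrArg Subtype.val (Subgroup.mem_center_iff.1 ht ⟨s, hs⟩)).symm)
    have h4 := ne_bot_of_le_ne_bot (fun h4 => by
      obtain ⟨v, hv, h1, -⟩ := hU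
      exact h1 (h4 ▸ hv : v ∈ (⊥ : Subgroup Aˣ))) (le_refl (Dr F))
    rw [hD, ← (alternatingGroup (Fin 6)).range_subtype, ← MonoidHom.range_comp] at h4 ⊢
    refine qs_range (qs_of_simple (commutator_alternatingGroup_eq_top (by simp)) ?_) _ h4
    exact ((QuotientGroup.quotientMulEquivOfEq h3).trans QuotientGroup.quotientBot).isSimpleGroup
  · rw [mul_one, ← e.map_eq_zero_iff]
    simp only [map_add, map_pow, map_one]
    exact phi_five (by rw [← map_pow, ← Units.val_pow_eq_pow_val, h5, Units.val_one, map_one])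
      fun h3 => h1 (Units.ext (e.map_eq_one_iff.1 h3))
  · rw [← map_pow, ← φ.map_one]; exact congrArg φ (by decide +kernel)
  · rw [htop _ fun u hu => Subring.subset_closure (Or.inr ⟨u, hu, rfl⟩)]; trivial
  · rw [← Units.val_mul, ← map_mul, inv_mul_cancel, map_one, Units.val_one]
  · rw [← Units.val_pow_eq_pow_val, ← Units.val_mul, ← Units.val_mul, ← map_pow, ← map_mul, ← map_mul]
    exact congrArg (fun σ => (φ σ : A)) (by decide)

/-- **QS for `Sp₄(2)`** -/
theorem qsc_Sp42 {K : Type} [Field K] [Fintype K] (hK : Fintype.card K = 2)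
    (e : A ≃+* Matrix (Fin 2 ⊕ Fin 2) (Fin 2 ⊕ Fin 2) K)
    (hiso : ∀ u : Aˣ, u ∈ F.Iso ↔ e u ∈ Matrix.symplecticGroup (Fin 2) K) : QSC F := by
  let f := (ZMod.ringEquivOfPrime K Nat.prime_two hK).symm
  refine qsc_Sp42' F (e.trans f.mapMatrix) fun u => (hiso u).trans ⟨fun hu => SymplecticGroup.map_mem hu f.toRingHom,
    fun hu => ?_⟩
  have h1 := SymplecticGroup.map_mem hu f.symm.toRingHom
  convert h1 using 1
  exact (f.mapMatrix.symm_apply_apply _).symm

end Cfsg.Agent.Cam.Cl.Sm
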